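import Mathlib
import Cfsg.Agent.H153.PrimeGraphThree
import Cfsg.Prelude.Def_Classical
import Cfsg.Agent.S0281

/-!
# Paths from 2 to 3 in the prime graphs of `PSL(3,2^n)` and `PSU(3,2^n)` (for S2526)
-/

set_option autoImplicit false

namespace Cfsg.Agent.H153.PrimeGraphPath

open Cfsg.Agent.H153.PrimeGraphThree

/-- Elements of orders 2 and 3 commuting with a nontrivial element. -/
theorem reach {G : Type*} [Group G] [Finite G] {u b d : G} (hu : orderOf u = 2)
    (hb : orderOf b = 3) (hdu : Commute d u) (hdb : Commute d b) (hd : d ≠ 1) :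
    (graph G).Reachable 2 3 := by
  have hm1 : orderOf d ≠ 1 := fun h => hd (orderOf_eq_one_iff.1 h)
  obtain ⟨r, hr, hrd⟩ := Nat.exists_prime_and_dvd hm1
  obtain ⟨m, hm⟩ := hrd
  have hpos : 0 < orderOf d := orderOf_pos d
  have hm0 : m ≠ 0 := by
    rintro rfl
    rw [mul_zero] at hm; omega
  have ho : orderOf (d ^ m) = r := by
    rw [orderOf_pow_of_dvd hm0 (by rw [hm]; exact dvd_mul_left m r), hm,
      Nat.mul_div_cancel _ (Nat.pos_of_ne_zero hm0)]
  have cu : Commute (d ^ m) u := hdu.pow_left m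
  have cb : Commute (d ^ m) b := hdb.pow_left m
  by_cases h2 : r = 2
  · apply SimpleGraph.Adj.reachable
    rw [adj_iff]
    refine ⟨by norm_num, Nat.prime_two, Nat.prime_three, d ^ m * b, ?_⟩
    rw [cb.orderOf_mul_eq_mul_orderOf_of_coprime, ho, hb, h2]
    rw [ho, hb, h2]; norm_num
  by_cases h3 : r = 3
  · apply SimpleGraph.Adj.reachable
    rw [adj_iff]
    refine ⟨by norm_num, Nat.prime_two, Nat.prime_three, d ^ m * u, ?_⟩
    rw [cu.orderOf_mul_eq_mul_orderOf_of_coprime, ho, hu, h3]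
    rw [ho, hu, h3]; norm_num
  · have e1 : (graph G).Adj 2 r := by
      rw [adj_iff]
      refine ⟨Ne.symm h2, Nat.prime_two, hr, d ^ m * u, ?_⟩
      rw [cu.orderOf_mul_eq_mul_orderOf_of_coprime, ho, hu, mul_comm]
      rw [ho, hu]; exact (Nat.coprime_primes hr Nat.prime_two).2 h2
    have e2 : (graph G).Adj r 3 := by
      rw [adj_iff]
      refine ⟨h3, hr, Nat.prime_three, d ^ m * b, ?_⟩
      rw [cb.orderOf_mul_eq_mul_orderOf_of_coprime, ho, hb]
      rw [ho, hb]; exact (Nat.coprime_primes hr Nat.prime_three).2 h3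
    exact e1.reachable.trans e2.reachable

theorem reach_congr {G H : Type*} [Group G] [Group H] (e : G ≃* H)
    (h : (graph H).Reachable 2 3) : (graph G).Reachable 2 3 := by
  have : graph G = graph H := by
    ext p q
    rw [adj_iff, adj_iff]
    constructor
    · rintro ⟨h1, h2, h3, g, hg⟩
      exact ⟨h1, h2, h3, e g, by rw [e.orderOf_eq, hg]⟩
    · rintro ⟨h1, h2, h3, g, hg⟩
      exact ⟨h1, h2, h3, e.symm g, by rw [e.symm.orderOf_eq, hg]⟩
  rwa [this]

section mats

variable {F : Type*} [Field F]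

/-- cyclic permutation matrix -/
def tau (F : Type*) [Field F] : Matrix.SpecialLinearGroup (Fin 3) F :=
  ⟨!![0, 0, 1; 1, 0, 0; 0, 1, 0], by simp [Matrix.det_fin_three]⟩

/-- a block matrix -/
def blk (a b c d : F) (h : a * d - b * c = 1) : Matrix.SpecialLinearGroup (Fin 3) F :=
  ⟨!![a, b, 0; c, d, 0; 0, 0, 1], by rw [Matrix.det_fin_three]; simp; linear_combination h⟩

/-- a diagonal matrix -/
def dia (z : F) (hz : z ≠ 0) : Matrix.SpecialLinearGroup (Fin 3) F :=
  ⟨!![z, 0, 0; 0, z, 0; 0, 0, (z ^ 2)⁻¹], by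
    rw [Matrix.det_fin_three]; simp; field_simp⟩

theorem dia_comm (z : F) (hz : z ≠ 0) (a b c d : F) (h : a * d - b * c = 1) :
    dia z hz * blk a b c d h = blk a b c d h * dia z hz := by
  apply Subtype.ext
  rw [Matrix.SpecialLinearGroup.coe_mul, Matrix.SpecialLinearGroup.coe_mul]
  ext i j
  fin_cases i <;> fin_cases j <;>
    simp [dia, blk, Matrix.mul_apply, Fin.sum_univ_three, mul_comm]

theorem coe_comm {A B : Matrix.SpecialLinearGroup (Fin 3) F} (h : A * B = B * A) :
    (A : Matrix (Fin 3) (Fin 3) F) * (B : Matrix (Fin 3) (Fin 3) F) =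
      (B : Matrix (Fin 3) (Fin 3) F) * (A : Matrix (Fin 3) (Fin 3) F) := by
  rw [← Matrix.SpecialLinearGroup.coe_mul, h, Matrix.SpecialLinearGroup.coe_mul]

theorem tau_val : (tau F : Matrix (Fin 3) (Fin 3) F) = !![0, 0, 1; 1, 0, 0; 0, 1, 0] := rfl

theorem dia_val {z : F} {hz : z ≠ 0} : (dia z hz : Matrix (Fin 3) (Fin 3) F) =
    !![z, 0, 0; 0, z, 0; 0, 0, (z ^ 2)⁻¹] := rfl

theorem blk_val {a b c d : F} {h : a * d - b * c = 1} :
    (blk a b c d h : Matrix (Fin 3) (Fin 3) F) = !![a, b, 0; c, d, 0; 0, 0, 1] := rfl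

theorem dia_tau {z : F} {hz : z ≠ 0} (h : tau F * dia z hz = dia z hz * tau F) : z ^ 3 = 1 := by
  have h0 := coe_comm h
  rw [tau_val, dia_val] at h0
  have h1 := congrFun (congrFun h0 2) 1
  simp [Matrix.mul_apply, Fin.sum_univ_three] at h1
  field_simp at h1
  linear_combination h1

theorem blk_tau {a b c d : F} {h : a * d - b * c = 1}
    (ht : tau F * blk a b c d h = blk a b c d h * tau F) : blk a b c d h = 1 := by
  have h0 := coe_comm ht
  rw [tau_val, blk_val] at h0
  have h00 := congrFun (congrFun h0 0) 0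
  have h02 := congrFun (congrFun h0 0) 2
  have h20 := congrFun (congrFun h0 2) 0
  have h21 := congrFun (congrFun h0 2) 1
  simp [Matrix.mul_apply, Fin.sum_univ_three] at h00 h02 h20 h21
  have hb : b = 0 := h00.symm
  have ha : a = 1 := h02.symm
  have hc : c = 0 := h20
  have hd : d = 1 := h21
  subst hb; subst ha; subst hc; subst hd
  apply Subtype.ext
  rw [Matrix.SpecialLinearGroup.coe_one, blk_val]
  ext i j
  fin_cases i <;> fin_cases j <;> simp

end mats

theorem reach_quot {X : Type*} [Group X] [Finite X] {t d u b : X} (hu : u ^ 2 = 1) (hb : b ^ 3 = 1)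
    (hdu : d * u = u * d) (hdb : d * b = b * d) (h1 : t * d ≠ d * t) (h2 : t * u ≠ u * t)
    (h3 : t * b ≠ b * t) : (graph (X ⧸ Subgroup.center X)).Reachable 2 3 := by
  have hne : ∀ x : X, t * x ≠ x * t → (QuotientGroup.mk x : X ⧸ Subgroup.center X) ≠ 1 := by
    intro x hx h
    rw [QuotientGroup.eq_one_iff, Subgroup.mem_center_iff] at h
    exact hx (h t)
  have f2 : Fact (Nat.Prime 2) := ⟨Nat.prime_two⟩
  have f3 : Fact (Nat.Prime 3) := ⟨Nat.prime_three⟩
  apply reach (u := (QuotientGroup.mk u : X ⧸ Subgroup.center X))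
    (b := (QuotientGroup.mk b : X ⧸ Subgroup.center X))
    (d := (QuotientGroup.mk d : X ⧸ Subgroup.center X))
  · apply orderOf_eq_prime _ (hne u h2)
    rw [← QuotientGroup.mk_pow, hu, QuotientGroup.mk_one]
  · apply orderOf_eq_prime _ (hne b h3)
    rw [← QuotientGroup.mk_pow, hb, QuotientGroup.mk_one]
  · change _ * _ = _ * _
    rw [← QuotientGroup.mk_mul, hdu, QuotientGroup.mk_mul]
  · change _ * _ = _ * _
    rw [← QuotientGroup.mk_mul, hdb, QuotientGroup.mk_mul]
  · exact hne d h1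

theorem blk_ne_one_ne {F : Type*} [Field F] {a b c d : F} {h : a * d - b * c = 1} (hb : b ≠ 0) :
    tau F * blk a b c d h ≠ blk a b c d h * tau F := by
  intro ht
  have h1 := blk_tau ht
  have h2 := congrArg (fun M : Matrix.SpecialLinearGroup (Fin 3) F =>
    (M : Matrix (Fin 3) (Fin 3) F) 0 1) h1
  simp [blk] at h2
  exact hb h2

theorem blk_mul {F : Type*} [Field F] {a b c d a' b' c' d' : F} (h : a * d - b * c = 1)
    (h' : a' * d' - b' * c' = 1) : blk a b c d h * blk a' b' c' d' h' =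
      blk (a * a' + b * c') (a * b' + b * d') (c * a' + d * c') (c * b' + d * d')
        (by linear_combination (a' * d' - b' * c') * h + h') := by
  apply Subtype.ext
  rw [Matrix.SpecialLinearGroup.coe_mul]
  ext i j
  fin_cases i <;> fin_cases j <;> simp [blk, Matrix.mul_apply, Fin.sum_univ_three]

theorem psl3_reach {F : Type*} [Field F] [Fintype F] [CharP F 2] (hF : 5 ≤ Fintype.card F) :
    (graph (Matrix.ProjectiveSpecialLinearGroup (Fin 3) F)).Reachable 2 3 := by
  classical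
  obtain ⟨z, hz⟩ := IsCyclic.exists_ofOrder_eq_natCard (α := Fˣ)
  have hz3 : (z : F) ^ 3 ≠ 1 := by
    intro h
    have h1 : z ^ 3 = 1 := Units.ext (by simpa using h)
    have h2 := Nat.le_of_dvd (by norm_num) (orderOf_dvd_of_pow_eq_one h1)
    rw [hz, Nat.card_eq_fintype_card, Fintype.card_units] at h2
    omega
  have h2 : (2 : F) = 0 := CharTwo.two_eq_zero
  have hu : (1 : F) * 1 - 1 * 0 = 1 := by ring
  have hb : (0 : F) * 1 - 1 * 1 = 1 := by linear_combination -h2
  refine reach_quot (t := tau F) (d := dia (z : F) z.ne_zero) (u := blk 1 1 0 1 hu)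
    (b := blk 0 1 1 1 hb) ?_ ?_ (dia_comm _ _ _ _ _ _ _) (dia_comm _ _ _ _ _ _ _)
    (fun h => hz3 (dia_tau h)) (blk_ne_one_ne one_ne_zero) (blk_ne_one_ne one_ne_zero)
  · rw [sq, blk_mul]
    apply Subtype.ext
    rw [blk_val, Matrix.SpecialLinearGroup.coe_one]
    ext i j
    fin_cases i <;> fin_cases j <;> simp
    linear_combination h2
  · rw [pow_succ, sq, blk_mul, blk_mul]
    apply Subtype.ext
    rw [blk_val, Matrix.SpecialLinearGroup.coe_one]
    ext i j
    fin_cases i <;> fin_cases j <;> simp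
    · linear_combination h2
    · linear_combination h2
    · linear_combination h2

theorem psu3_reach {F : Type*} [Field F] [Fintype F] {q : ℕ} (hF : Fintype.card F = q ^ 2)
    {n : ℕ} (hn : 1 ≤ n) (hqn : q = 2 ^ n) (hq : 3 ≤ q) :
    (graph (Cfsg.PSU 3 F q)).Reachable 2 3 := by
  classical
  have f2 : Fact (Nat.Prime 2) := ⟨Nat.prime_two⟩
  have : CharP F 2 := by
    have h0 : ((q ^ 2 : ℕ) : F) = 0 := by rw [← hF]; exact Nat.cast_card_eq_zero F
    rw [hqn] at h0
    push_cast at h0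
    have h2 : (2 : F) = 0 := pow_eq_zero_iff (n := n) (by omega) |>.1
      (pow_eq_zero_iff (n := 2) (by norm_num) |>.1 h0)
    exact CharTwo.of_one_ne_zero_of_two_eq_zero one_ne_zero h2
  have h2 : (2 : F) = 0 := CharTwo.two_eq_zero
  -- the element of order `q + 1`
  obtain ⟨g, hg⟩ := IsCyclic.exists_ofOrder_eq_natCard (α := Fˣ)
  have hcard : Nat.card Fˣ = (q - 1) * (q + 1) := by
    rw [Nat.card_eq_fintype_card, Fintype.card_units, hF]
    obtain ⟨m, rfl⟩ : ∃ m, q = m + 1 := ⟨q - 1, by omega⟩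
    simp only [Nat.add_sub_cancel]
    rw [Nat.sub_eq_iff_eq_add (by nlinarith)]
    ring
  set z : Fˣ := g ^ (q - 1) with hzdef
  have hzord : orderOf z = q + 1 := by
    rw [hzdef, orderOf_pow_of_dvd (by omega) (by rw [hg, hcard]; exact dvd_mul_right _ _), hg, hcard,
      Nat.mul_div_cancel_left _ (by omega)]
  have hz1 : (z : F) ^ (q + 1) = 1 := by
    rw [← Units.val_pow_eq_pow_val, ← hzord, pow_orderOf_eq_one, Units.val_one]
  have hz3 : (z : F) ^ 3 ≠ 1 := by
    intro h
    have h1 : z ^ 3 = 1 := Units.ext (by simpa using h)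
    have h2 := Nat.le_of_dvd (by norm_num) (orderOf_dvd_of_pow_eq_one h1)
    rw [hzord] at h2
    omega
  -- membership
  have hmem_dia : dia (z : F) z.ne_zero ∈ Cfsg.SU 3 F q := by
    intro u v
    simp only [Cfsg.hermForm, Fin.sum_univ_three]
    change (dia (z : F) z.ne_zero : Matrix (Fin 3) (Fin 3) F).mulVec u 0 *
      (dia (z : F) z.ne_zero : Matrix (Fin 3) (Fin 3) F).mulVec v 0 ^ q +
      (dia (z : F) z.ne_zero : Matrix (Fin 3) (Fin 3) F).mulVec u 1 *
      (dia (z : F) z.ne_zero : Matrix (Fin 3) (Fin 3) F).mulVec v 1 ^ q +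
      (dia (z : F) z.ne_zero : Matrix (Fin 3) (Fin 3) F).mulVec u 2 *
      (dia (z : F) z.ne_zero : Matrix (Fin 3) (Fin 3) F).mulVec v 2 ^ q = _
    rw [dia_val]
    simp only [Matrix.mulVec, dotProduct, Fin.sum_univ_three]
    simp
    have e1 : (z : F) * (z : F) ^ q = 1 := by rw [← pow_succ', hz1]
    have e2 : ((z : F) ^ 2)⁻¹ * (((z : F) ^ 2)⁻¹) ^ q = 1 := by
      rw [inv_pow, ← mul_inv, ← mul_pow_sub_one (n := q) (by omega), ← pow_mul]
      rw [← mul_assoc, ← sq, ← pow_mul]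
      have : ((z : F) ^ (2 * 2)) * (z : F) ^ (2 * (q - 1)) = ((z : F) ^ (q + 1)) ^ 2 := by
        rw [← pow_add, ← pow_mul]
        congr 1
        omega
      rw [this, hz1, one_pow, inv_one]
    rw [mul_pow, mul_pow, mul_pow]
    linear_combination (u 0 * v 0 ^ q + u 1 * v 1 ^ q) * e1 + (u 2 * v 2 ^ q) * e2
  have hmem_tau : tau F ∈ Cfsg.SU 3 F q := by
    intro u v
    simp only [Cfsg.hermForm, Fin.sum_univ_three]
    change (tau F : Matrix (Fin 3) (Fin 3) F).mulVec u 0 *
      (tau F : Matrix (Fin 3) (Fin 3) F).mulVec v 0 ^ q +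
      (tau F : Matrix (Fin 3) (Fin 3) F).mulVec u 1 *
      (tau F : Matrix (Fin 3) (Fin 3) F).mulVec v 1 ^ q +
      (tau F : Matrix (Fin 3) (Fin 3) F).mulVec u 2 *
      (tau F : Matrix (Fin 3) (Fin 3) F).mulVec v 2 ^ q = _
    rw [tau_val]
    simp only [Matrix.mulVec, dotProduct, Fin.sum_univ_three]
    simp
    ring
  have hmem_blk : ∀ (a b c d : F) (h : a * d - b * c = 1),
      (∀ u v : Fin 2 → F, (a * u 0 + b * u 1) * (a * v 0 + b * v 1) ^ q +
        (c * u 0 + d * u 1) * (c * v 0 + d * v 1) ^ q = u 0 * v 0 ^ q + u 1 * v 1 ^ q) →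
      blk a b c d h ∈ Cfsg.SU 3 F q := by
    intro a b c d h hform u v
    simp only [Cfsg.hermForm, Fin.sum_univ_three]
    change (blk a b c d h : Matrix (Fin 3) (Fin 3) F).mulVec u 0 *
      (blk a b c d h : Matrix (Fin 3) (Fin 3) F).mulVec v 0 ^ q +
      (blk a b c d h : Matrix (Fin 3) (Fin 3) F).mulVec u 1 *
      (blk a b c d h : Matrix (Fin 3) (Fin 3) F).mulVec v 1 ^ q +
      (blk a b c d h : Matrix (Fin 3) (Fin 3) F).mulVec u 2 *
      (blk a b c d h : Matrix (Fin 3) (Fin 3) F).mulVec v 2 ^ q = _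
    rw [blk_val]
    simp only [Matrix.mulVec, dotProduct, Fin.sum_univ_three]
    simp
    have := hform ![u 0, u 1] ![v 0, v 1]
    simp at this
    linear_combination this
  -- the element of order three
  have : Fintype (GaloisField 2 n) := Fintype.ofFinite _
  have hK : Fintype.card (GaloisField 2 n) = q := by
    rw [← Nat.card_eq_fintype_card, GaloisField.card 2 n (by omega), hqn]
  obtain ⟨e⟩ := Cfsg.Agent.S0281.result (F := F) (K := GaloisField 2 n) hF hK
  have h2K : (2 : GaloisField 2 n) = 0 := CharTwo.two_eq_zero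
  let B : Matrix.SpecialLinearGroup (Fin 2) (GaloisField 2 n) :=
    ⟨!![0, 1; 1, 1], by rw [Matrix.det_fin_two_of]; linear_combination -h2K⟩
  have hBval : (B : Matrix (Fin 2) (Fin 2) (GaloisField 2 n)) = !![0, 1; 1, 1] := rfl
  have hB3 : B ^ 3 = 1 := by
    apply Subtype.ext
    rw [Matrix.SpecialLinearGroup.coe_pow, hBval, Matrix.SpecialLinearGroup.coe_one, pow_succ, sq]
    ext i j
    fin_cases i <;> fin_cases j <;> simp [Matrix.mul_apply, Fin.sum_univ_two]
    · linear_combination h2K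
    · linear_combination h2K
    · linear_combination h2K
  have hB1 : B ≠ 1 := by
    intro h
    have h1 := congrArg (fun M : Matrix.SpecialLinearGroup (Fin 2) (GaloisField 2 n) =>
      (M : Matrix (Fin 2) (Fin 2) (GaloisField 2 n)) 0 1) h
    simp [B] at h1
  obtain ⟨β, hβ⟩ : ∃ β : Cfsg.SU 2 F q, β = e.symm B := ⟨_, rfl⟩
  have hβ3 : β ^ 3 = 1 := by rw [hβ, ← map_pow, hB3, map_one]
  have hβ1 : β ≠ 1 := by
    rw [hβ]
    intro h
    exact hB1 (by simpa using h)
  set M : Matrix (Fin 2) (Fin 2) F := ((β : Matrix.SpecialLinearGroup (Fin 2) F) :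
    Matrix (Fin 2) (Fin 2) F) with hM
  have hdet : M 0 0 * M 1 1 - M 0 1 * M 1 0 = 1 := by
    rw [← Matrix.det_fin_two]; exact (β : Matrix.SpecialLinearGroup (Fin 2) F).2
  have hform : ∀ u v : Fin 2 → F, (M 0 0 * u 0 + M 0 1 * u 1) * (M 0 0 * v 0 + M 0 1 * v 1) ^ q +
        (M 1 0 * u 0 + M 1 1 * u 1) * (M 1 0 * v 0 + M 1 1 * v 1) ^ q =
          u 0 * v 0 ^ q + u 1 * v 1 ^ q := by
    intro u v
    have h1 := β.2 u v
    simp only [Cfsg.hermForm, Fin.sum_univ_two] at h1
    change M.mulVec u 0 * M.mulVec v 0 ^ q + M.mulVec u 1 * M.mulVec v 1 ^ q = _ at h1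
    simpa [Matrix.mulVec, dotProduct, Fin.sum_univ_two] using h1
  have hM3 : M ^ 3 = 1 := by
    have h1 := congrArg (fun x : Cfsg.SU 2 F q => ((x : Matrix.SpecialLinearGroup (Fin 2) F) :
      Matrix (Fin 2) (Fin 2) F)) hβ3
    simpa using h1
  have hblk3 : blk (M 0 0) (M 0 1) (M 1 0) (M 1 1) hdet ^ 3 = 1 := by
    rw [pow_succ, sq, blk_mul, blk_mul]
    apply Subtype.ext
    rw [blk_val, Matrix.SpecialLinearGroup.coe_one]
    rw [pow_succ, sq] at hM3
    have e00 := congrFun (congrFun hM3 0) 0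
    have e01 := congrFun (congrFun hM3 0) 1
    have e10 := congrFun (congrFun hM3 1) 0
    have e11 := congrFun (congrFun hM3 1) 1
    simp only [Matrix.mul_apply, Fin.sum_univ_two] at e00 e01 e10 e11
    ext i j
    fin_cases i <;> fin_cases j <;> simp
    · simpa using e00
    · simpa using e01
    · simpa using e10
    · simpa using e11
  have hu : (0 : F) * 0 - 1 * 1 = 1 := by linear_combination -h2
  have hblku : blk 0 1 1 0 hu ∈ Cfsg.SU 3 F q := by
    apply hmem_blk
    intro u v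
    ring
  have sub : ∀ {x y : Cfsg.SU 3 F q}, (x : Matrix.SpecialLinearGroup (Fin 3) F) * y = y * x →
      x * y = y * x := fun h => Subtype.ext h
  refine reach_quot (X := Cfsg.SU 3 F q) (t := ⟨tau F, hmem_tau⟩)
    (d := ⟨dia (z : F) z.ne_zero, hmem_dia⟩) (u := ⟨blk 0 1 1 0 hu, hblku⟩)
    (b := ⟨blk (M 0 0) (M 0 1) (M 1 0) (M 1 1) hdet, hmem_blk _ _ _ _ _ hform⟩)
    ?_ (Subtype.ext hblk3) (sub (dia_comm _ z.ne_zero _ _ _ _ hu))
    (sub (dia_comm _ z.ne_zero _ _ _ _ hdet))
    (fun h => hz3 (dia_tau (hz := z.ne_zero) (congrArg Subtype.val h)))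
    (fun h => blk_ne_one_ne (h := hu) one_ne_zero (congrArg Subtype.val h)) ?_
  · apply Subtype.ext
    change blk 0 1 1 0 hu ^ 2 = 1
    rw [sq, blk_mul]
    apply Subtype.ext
    rw [blk_val, Matrix.SpecialLinearGroup.coe_one]
    ext i j
    fin_cases i <;> fin_cases j <;> simp
  · intro h
    have h1 := blk_tau (h := hdet) (congrArg Subtype.val h)
    apply hβ1
    apply Subtype.ext
    apply Subtype.ext
    have h3 := congrArg (fun A : Matrix.SpecialLinearGroup (Fin 3) F =>
      (A : Matrix (Fin 3) (Fin 3) F)) h1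
    simp only [blk_val, Matrix.SpecialLinearGroup.coe_one] at h3
    have e00 := congrFun (congrFun h3 0) 0
    have e01 := congrFun (congrFun h3 0) 1
    have e10 := congrFun (congrFun h3 1) 0
    have e11 := congrFun (congrFun h3 1) 1
    simp at e00 e01 e10 e11
    rw [← hM]
    ext i j
    fin_cases i <;> fin_cases j <;> simp [e00, e01, e10, e11]

end Cfsg.Agent.H153.PrimeGraphPath
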